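import Mathlib
import Cfsg.Agent.Lib.Helper70.OPar.Defs
import Cfsg.Agent.Lib.Helper94.Refl

/-!
# OPAR (S5989), package [OM1]: an element of `Ω⁺_{2d}(q)` with square `-1` when `d` is even or
`q ≡ 1 (mod 8)`.

* `d = e + e`: `x = Φ(c)`, `Φ(A) = fromBlocks A 0 0 (A⁻¹)ᵀ`, `c = [g, h]` the commutator in
  `GL_d` of (the reindexed) `g = fromBlocks 1 0 0 (-1)`, `h = fromBlocks (-1) 1 1 1`,
  `c = fromBlocks 0 (-1) 1 0`.
* `q ≡ 1 (mod 8)`: `ε⁴ = -1`, `T = diag(ε, ε⁻¹)`, `S` the swap, `x = [S, T] = diag(ε⁻², ε²)`.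
-/

set_option autoImplicit false
open scoped MatrixGroups
open Matrix

namespace Cfsg.Agent.Lib.Helper20.OPar

open Cfsg.Agent.Lib.Helper70.OPar

universe u

section

variable {F : Type u} [Field F]

theorem exists_pow_four_eq_neg_one [Fintype F] (h8 : Fintype.card F % 8 = 1) :
    ∃ ε : F, ε ^ 4 = -1 := by
  have hchar : ringChar F ≠ 2 := by
    intro h
    have := FiniteField.even_card_iff_char_two.mp h
    omega
  have h4 : Fintype.card F % 4 ≠ 3 := by omega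
  obtain ⟨i, hi⟩ := FiniteField.isSquare_neg_one_iff.mpr h4
  have hi0 : i ≠ 0 := by
    rintro rfl
    simp at hi
  have hi4 : i ^ 4 = 1 := by
    calc i ^ 4 = (i * i) * (i * i) := by ring
      _ = 1 := by rw [← hi]; ring
  have hsq : IsSquare i := by
    rw [FiniteField.isSquare_iff hchar hi0]
    obtain ⟨m, hm⟩ : ∃ m, Fintype.card F = 8 * m + 1 := ⟨Fintype.card F / 8, by omega⟩
    have h2 : Fintype.card F / 2 = 4 * m := by omega
    rw [h2, pow_mul, hi4, one_pow]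
  obtain ⟨ε, hε⟩ := hsq
  refine ⟨ε, ?_⟩
  calc ε ^ 4 = (ε * ε) * (ε * ε) := by ring
    _ = i * i := by rw [← hε]
    _ = -1 := hi.symm

/-- `A ↦ fromBlocks A 0 0 (A⁻¹)ᵀ` -/
noncomputable def phi (d : ℕ) : GL (Fin d) F →* GL (Fin d ⊕ Fin d) F where
  toFun A := ⟨fromBlocks (A : Matrix (Fin d) (Fin d) F) 0 0
      ((A⁻¹ : GL (Fin d) F) : Matrix (Fin d) (Fin d) F)ᵀ,
    fromBlocks ((A⁻¹ : GL (Fin d) F) : Matrix (Fin d) (Fin d) F) 0 0
      (A : Matrix (Fin d) (Fin d) F)ᵀ,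
    by
      rw [fromBlocks_multiply]
      simp only [Matrix.mul_zero, Matrix.zero_mul, add_zero, zero_add, ← Matrix.transpose_mul,
        Units.mul_inv, Units.inv_mul, Matrix.transpose_one, fromBlocks_one],
    by
      rw [fromBlocks_multiply]
      simp only [Matrix.mul_zero, Matrix.zero_mul, add_zero, zero_add, ← Matrix.transpose_mul,
        Units.mul_inv, Units.inv_mul, Matrix.transpose_one, fromBlocks_one]⟩
  map_one' := by
    apply Units.ext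
    show fromBlocks ((1 : GL (Fin d) F) : Matrix (Fin d) (Fin d) F) 0 0
      (((1 : GL (Fin d) F)⁻¹ : GL (Fin d) F) : Matrix (Fin d) (Fin d) F)ᵀ = 1
    simp [fromBlocks_one]
  map_mul' A B := by
    apply Units.ext
    show fromBlocks ((A * B : GL (Fin d) F) : Matrix (Fin d) (Fin d) F) 0 0
        (((A * B)⁻¹ : GL (Fin d) F) : Matrix (Fin d) (Fin d) F)ᵀ =
      fromBlocks (A : Matrix (Fin d) (Fin d) F) 0 0
        ((A⁻¹ : GL (Fin d) F) : Matrix (Fin d) (Fin d) F)ᵀ *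
      fromBlocks (B : Matrix (Fin d) (Fin d) F) 0 0
        ((B⁻¹ : GL (Fin d) F) : Matrix (Fin d) (Fin d) F)ᵀ
    rw [fromBlocks_multiply]
    simp [_root_.mul_inv_rev, Matrix.transpose_mul]

theorem phi_val (d : ℕ) (A : GL (Fin d) F) :
    ((phi d A : GL (Fin d ⊕ Fin d) F) : Matrix (Fin d ⊕ Fin d) (Fin d ⊕ Fin d) F) =
      fromBlocks (A : Matrix (Fin d) (Fin d) F) 0 0
        ((A⁻¹ : GL (Fin d) F) : Matrix (Fin d) (Fin d) F)ᵀ := rfl

theorem phi_mem (d : ℕ) (A : GL (Fin d) F) :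
    phi d A ∈ Cfsg.isometryGroup F (Cfsg.quadFormPlus d F) := by
  intro u _
  show Cfsg.quadFormPlus d F
      (((phi d A : GL (Fin d ⊕ Fin d) F) : Matrix (Fin d ⊕ Fin d) (Fin d ⊕ Fin d) F) *ᵥ u) =
    Cfsg.quadFormPlus d F u
  rw [phi_val]
  unfold Cfsg.quadFormPlus
  rw [fromBlocks_mulVec]
  simp only [Sum.elim_inl, Sum.elim_inr, Matrix.zero_mulVec, add_zero, zero_add]
  have h1 : ∑ i, ((A : Matrix (Fin d) (Fin d) F) *ᵥ (u ∘ Sum.inl)) i *
      (((A⁻¹ : GL (Fin d) F) : Matrix (Fin d) (Fin d) F)ᵀ *ᵥ (u ∘ Sum.inr)) i =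
      ((A : Matrix (Fin d) (Fin d) F) *ᵥ (u ∘ Sum.inl)) ⬝ᵥ
        (((A⁻¹ : GL (Fin d) F) : Matrix (Fin d) (Fin d) F)ᵀ *ᵥ (u ∘ Sum.inr)) := rfl
  rw [h1, Matrix.mulVec_transpose, dotProduct_comm, ← Matrix.dotProduct_mulVec,
    Matrix.mulVec_mulVec, Units.inv_mul, Matrix.one_mulVec, dotProduct_comm]
  rfl

theorem blocks_neg_one (d : ℕ) :
    (fromBlocks (-1 : Matrix (Fin d) (Fin d) F) 0 0 (-1) :
      Matrix (Fin d ⊕ Fin d) (Fin d ⊕ Fin d) F) = -1 := by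
  rw [← fromBlocks_one, fromBlocks_neg]
  simp

/-- the square of `Φ(c)` when `c * c = -1` -/
theorem phi_sq (d : ℕ) (c : GL (Fin d) F)
    (hcc : (c : Matrix (Fin d) (Fin d) F) * (c : Matrix (Fin d) (Fin d) F) = -1) :
    ((phi d c : GL (Fin d ⊕ Fin d) F) : Matrix (Fin d ⊕ Fin d) (Fin d ⊕ Fin d) F) *
      ((phi d c : GL (Fin d ⊕ Fin d) F) : Matrix (Fin d ⊕ Fin d) (Fin d ⊕ Fin d) F) = -1 := by
  have h1 : (c : Matrix (Fin d) (Fin d) F) * (-(c : Matrix (Fin d) (Fin d) F)) = 1 := by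
    rw [mul_neg, hcc, neg_neg]
  have hci : ((c⁻¹ : GL (Fin d) F) : Matrix (Fin d) (Fin d) F) =
      -(c : Matrix (Fin d) (Fin d) F) := by
    calc ((c⁻¹ : GL (Fin d) F) : Matrix (Fin d) (Fin d) F)
        = ((c⁻¹ : GL (Fin d) F) : Matrix (Fin d) (Fin d) F) *
          ((c : Matrix (Fin d) (Fin d) F) * (-(c : Matrix (Fin d) (Fin d) F))) := by
          rw [h1, mul_one]
      _ = -(c : Matrix (Fin d) (Fin d) F) := by rw [← mul_assoc, Units.inv_mul, one_mul]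
  rw [phi_val, fromBlocks_multiply]
  simp only [Matrix.mul_zero, Matrix.zero_mul, add_zero, zero_add]
  rw [hci, ← Matrix.transpose_mul, neg_mul_neg, hcc, Matrix.transpose_neg, Matrix.transpose_one]
  exact blocks_neg_one d

/-- the swap of the two halves -/
noncomputable def swapGL (d : ℕ) : GL (Fin d ⊕ Fin d) F :=
  ⟨fromBlocks 0 1 1 0, fromBlocks 0 1 1 0,
    by rw [fromBlocks_multiply]; simp [fromBlocks_one],
    by rw [fromBlocks_multiply]; simp [fromBlocks_one]⟩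

theorem swapGL_mem (d : ℕ) :
    (swapGL d : GL (Fin d ⊕ Fin d) F) ∈ Cfsg.isometryGroup F (Cfsg.quadFormPlus d F) := by
  intro u _
  show Cfsg.quadFormPlus d F
      ((fromBlocks 0 1 1 0 : Matrix (Fin d ⊕ Fin d) (Fin d ⊕ Fin d) F) *ᵥ u) =
    Cfsg.quadFormPlus d F u
  unfold Cfsg.quadFormPlus
  rw [fromBlocks_mulVec]
  simp only [Sum.elim_inl, Sum.elim_inr, Matrix.zero_mulVec, Matrix.one_mulVec, add_zero,
    zero_add]
  apply Finset.sum_congr rfl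
  intro i _
  simp [mul_comm]

theorem smul_one_mul_smul_one (d : ℕ) (a b : F) :
    (a • (1 : Matrix (Fin d) (Fin d) F)) * (b • (1 : Matrix (Fin d) (Fin d) F)) =
      (a * b) • (1 : Matrix (Fin d) (Fin d) F) := by
  rw [Matrix.smul_mul, Matrix.one_mul, smul_smul]

/-- `diag(ε, ε⁻¹)` -/
noncomputable def diagGL (d : ℕ) (ε : F) (hε : ε ≠ 0) : GL (Fin d ⊕ Fin d) F :=
  ⟨fromBlocks (ε • (1 : Matrix (Fin d) (Fin d) F)) 0 0 (ε⁻¹ • (1 : Matrix (Fin d) (Fin d) F)),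
    fromBlocks (ε⁻¹ • (1 : Matrix (Fin d) (Fin d) F)) 0 0 (ε • (1 : Matrix (Fin d) (Fin d) F)),
    by
      rw [fromBlocks_multiply]
      simp only [Matrix.mul_zero, Matrix.zero_mul, add_zero, zero_add, smul_one_mul_smul_one,
        mul_inv_cancel₀ hε, inv_mul_cancel₀ hε, one_smul, fromBlocks_one],
    by
      rw [fromBlocks_multiply]
      simp only [Matrix.mul_zero, Matrix.zero_mul, add_zero, zero_add, smul_one_mul_smul_one,
        mul_inv_cancel₀ hε, inv_mul_cancel₀ hε, one_smul, fromBlocks_one]⟩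

theorem diagGL_mem (d : ℕ) (ε : F) (hε : ε ≠ 0) :
    (diagGL d ε hε : GL (Fin d ⊕ Fin d) F) ∈ Cfsg.isometryGroup F (Cfsg.quadFormPlus d F) := by
  intro u _
  show Cfsg.quadFormPlus d F
      ((fromBlocks (ε • (1 : Matrix (Fin d) (Fin d) F)) 0 0
        (ε⁻¹ • (1 : Matrix (Fin d) (Fin d) F)) :
          Matrix (Fin d ⊕ Fin d) (Fin d ⊕ Fin d) F) *ᵥ u) =
    Cfsg.quadFormPlus d F u
  unfold Cfsg.quadFormPlus
  rw [fromBlocks_mulVec]
  simp only [Sum.elim_inl, Sum.elim_inr, Matrix.zero_mulVec, Matrix.one_mulVec, add_zero,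
    zero_add, Matrix.smul_mulVec, Pi.smul_apply, smul_eq_mul, Function.comp_apply]
  apply Finset.sum_congr rfl
  intro i _
  calc ε * u (Sum.inl i) * (ε⁻¹ * u (Sum.inr i))
      = (ε * ε⁻¹) * (u (Sum.inl i) * u (Sum.inr i)) := by ring
    _ = u (Sum.inl i) * u (Sum.inr i) := by rw [mul_inv_cancel₀ hε, one_mul]

end

/-- [OM1] -/
theorem pkgOm1 : PkgOm1.{u} := by
  intro F _ _ hodd d hd
  rcases hd with hd | h8
  · -- `d` even
    obtain ⟨e, rfl⟩ := hd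
    have hchar : ringChar F ≠ 2 := by
      intro h
      have := FiniteField.even_card_iff_char_two.mp h
      rw [Nat.odd_iff] at hodd
      omega
    have h2 : (2 : F) ≠ 0 := Ring.two_ne_zero hchar
    obtain ⟨g₀, hg₀⟩ : ∃ g₀ : Matrix (Fin e ⊕ Fin e) (Fin e ⊕ Fin e) F,
        g₀ = fromBlocks 1 0 0 (-1) := ⟨_, rfl⟩
    obtain ⟨h₀, hh₀⟩ : ∃ h₀ : Matrix (Fin e ⊕ Fin e) (Fin e ⊕ Fin e) F,
        h₀ = fromBlocks (-1) 1 1 1 := ⟨_, rfl⟩
    have hgg : g₀ * g₀ = 1 := by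
      rw [hg₀, fromBlocks_multiply]
      simp [fromBlocks_one]
    have hhh : h₀ * h₀ = (2 : F) • (1 : Matrix (Fin e ⊕ Fin e) (Fin e ⊕ Fin e) F) := by
      rw [hh₀, fromBlocks_multiply, ← fromBlocks_one, fromBlocks_smul]
      congr 1
      · simp [two_smul]
      · simp
      · simp
      · simp [two_smul]
    have hh1 : h₀ * ((2 : F)⁻¹ • h₀) = 1 := by
      rw [Matrix.mul_smul, hhh, smul_smul, inv_mul_cancel₀ h2, one_smul]
    have hh2 : ((2 : F)⁻¹ • h₀) * h₀ = 1 := by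
      rw [Matrix.smul_mul, hhh, smul_smul, inv_mul_cancel₀ h2, one_smul]
    have hc₀ : g₀ * h₀ * g₀ * ((2 : F)⁻¹ • h₀) = fromBlocks 0 (-1) 1 0 := by
      have h3 : g₀ * h₀ * g₀ * h₀ = (2 : F) • fromBlocks 0 (-1) 1 0 := by
        rw [hg₀, hh₀, fromBlocks_multiply, fromBlocks_multiply, fromBlocks_multiply,
          fromBlocks_smul]
        congr 1
        · simp
        · simp [two_smul]
        · simp [two_smul]
        · simp
      rw [Matrix.mul_smul, h3, smul_smul, inv_mul_cancel₀ h2, one_smul]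
    have hcc : (fromBlocks 0 (-1) 1 0 : Matrix (Fin e ⊕ Fin e) (Fin e ⊕ Fin e) F) *
        fromBlocks 0 (-1) 1 0 = -1 := by
      rw [fromBlocks_multiply, ← blocks_neg_one]
      simp
    obtain ⟨ρ, hρ⟩ : ∃ ρ : Matrix (Fin e ⊕ Fin e) (Fin e ⊕ Fin e) F ≃ₐ[F]
        Matrix (Fin (e + e)) (Fin (e + e)) F, ρ = Matrix.reindexAlgEquiv F F finSumFinEquiv :=
      ⟨_, rfl⟩
    obtain ⟨gG, hgG⟩ : ∃ gG : GL (Fin (e + e)) F,
        (gG : Matrix (Fin (e + e)) (Fin (e + e)) F) = ρ g₀ ∧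
        ((gG⁻¹ : GL (Fin (e + e)) F) : Matrix (Fin (e + e)) (Fin (e + e)) F) = ρ g₀ :=
      ⟨⟨ρ g₀, ρ g₀, by rw [← map_mul, hgg, map_one], by rw [← map_mul, hgg, map_one]⟩, rfl, rfl⟩
    obtain ⟨hG, hhG⟩ : ∃ hG : GL (Fin (e + e)) F,
        (hG : Matrix (Fin (e + e)) (Fin (e + e)) F) = ρ h₀ ∧
        ((hG⁻¹ : GL (Fin (e + e)) F) : Matrix (Fin (e + e)) (Fin (e + e)) F) =
          ρ ((2 : F)⁻¹ • h₀) :=
      ⟨⟨ρ h₀, ρ ((2 : F)⁻¹ • h₀), by rw [← map_mul, hh1, map_one],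
        by rw [← map_mul, hh2, map_one]⟩, rfl, rfl⟩
    have hcval : ((gG * hG * gG⁻¹ * hG⁻¹ : GL (Fin (e + e)) F) :
        Matrix (Fin (e + e)) (Fin (e + e)) F) = ρ (fromBlocks 0 (-1) 1 0) := by
      rw [Units.val_mul, Units.val_mul, Units.val_mul, hgG.1, hgG.2, hhG.1, hhG.2, ← map_mul,
        ← map_mul, ← map_mul, hc₀]
    have hsq : ((gG * hG * gG⁻¹ * hG⁻¹ : GL (Fin (e + e)) F) :
        Matrix (Fin (e + e)) (Fin (e + e)) F) *
        ((gG * hG * gG⁻¹ * hG⁻¹ : GL (Fin (e + e)) F) :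
          Matrix (Fin (e + e)) (Fin (e + e)) F) = -1 := by
      rw [hcval, ← map_mul, hcc, map_neg, map_one]
    refine ⟨phi (e + e) (gG * hG * gG⁻¹ * hG⁻¹), ?_, phi_sq (e + e) _ hsq⟩
    rw [map_mul, map_mul, map_mul, map_inv, map_inv]
    exact Cfsg.Agent.Lib.Helper94.comm_mem_omegaGL _ _ (phi_mem _ gG) (phi_mem _ hG)
  · -- `q ≡ 1 (mod 8)`
    obtain ⟨ε, hε⟩ := exists_pow_four_eq_neg_one h8
    have hε0 : ε ≠ 0 := by
      rintro rfl
      norm_num at hε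
    refine ⟨swapGL d * diagGL d ε hε0 * (swapGL d)⁻¹ * (diagGL d ε hε0)⁻¹,
      Cfsg.Agent.Lib.Helper94.comm_mem_omegaGL _ _ (swapGL_mem d) (diagGL_mem d ε hε0), ?_⟩
    have hval : ((swapGL d * diagGL d ε hε0 * (swapGL d)⁻¹ * (diagGL d ε hε0)⁻¹ :
        GL (Fin d ⊕ Fin d) F) : Matrix (Fin d ⊕ Fin d) (Fin d ⊕ Fin d) F) =
        fromBlocks 0 1 1 0 *
          fromBlocks (ε • (1 : Matrix (Fin d) (Fin d) F)) 0 0
            (ε⁻¹ • (1 : Matrix (Fin d) (Fin d) F)) *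
          fromBlocks 0 1 1 0 *
          fromBlocks (ε⁻¹ • (1 : Matrix (Fin d) (Fin d) F)) 0 0
            (ε • (1 : Matrix (Fin d) (Fin d) F)) := rfl
    have h4 : (ε * ε) * (ε * ε) = -1 := by
      rw [← hε]
      ring
    have h4' : (ε⁻¹ * ε⁻¹) * (ε⁻¹ * ε⁻¹) = -1 := by
      rw [← mul_inv, ← mul_inv, h4, inv_neg_one]
    rw [hval]
    simp only [fromBlocks_multiply, Matrix.mul_zero, Matrix.zero_mul, add_zero, zero_add,
      Matrix.mul_one, Matrix.one_mul, smul_one_mul_smul_one, h4, h4', neg_one_smul]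
    exact blocks_neg_one d

end Cfsg.Agent.Lib.Helper20.OPar
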